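import Cfsg.Agent.CpAutHNFive.Main
import Cfsg.Agent.BpSpor.UniqueCrit

/-!
# S1332: HN, `p = 5` : the class 5A (helper25)

* `good_of_klein` : commuting involutions `a`, `b`, `a b` conjugate to `t`, `|C(t)|` divides `2^4 3 5^k`, the core of
  odd order, `13 ∤ |H|`: `Good 5 H`;
* `good_w2` : `Good 5 C(ψ w2)`.
-/

set_option autoImplicit false

namespace Cfsg.Agent.BpSpor

open Subgroup Cfsg
open Cfsg.Agent.BpTab Cfsg.Agent.Lib Cfsg.Agent.SignalizersComponents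

universe u

/-- fixed points of conjugate elements on a normal subgroup -/
theorem card_inf_of_conj {H : Type u} [Group H] {O : Subgroup H} [hO : O.Normal] {t a c : H} (h : c * t * c⁻¹ = a) :
    Nat.card ↥(O ⊓ centralizer ({a} : Set H)) = Nat.card ↥(O ⊓ centralizer ({t} : Set H)) := by
  have h1 : (O ⊓ centralizer ({t} : Set H)).map (MulAut.conj c).toMonoidHom = O ⊓ centralizer ({a} : Set H) := by
    rw [Subgroup.map_inf _ _ _ (MulAut.conj c).injective, CpAutHNFive.TauFive.map_centralizer, h]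
    congr 1
    ext y
    constructor
    · rintro ⟨z, hz, rfl⟩
      exact hO.conj_mem z hz c
    · intro hy
      refine ⟨c⁻¹ * y * c, ?_, ?_⟩
      · have h2 := hO.conj_mem y hy c⁻¹
        rwa [inv_inv] at h2
      · change c * (c⁻¹ * y * c) * c⁻¹ = y
        group
  rw [← h1]
  exact card_map_of_injective (MulAut.conj c).injective

/-- **The criterion.** -/
theorem good_of_klein {H : Type u} [Group H] [Finite H] {t a b : H} (ha : a * a = 1) (hb : b * b = 1)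
    (hab : a * b = b * a) (c1 : ∃ c, c * t * c⁻¹ = a) (c2 : ∃ c, c * t * c⁻¹ = b) (c3 : ∃ c, c * t * c⁻¹ = a * b)
    (hodd : Odd (Nat.card ↥(pPrimeCore 5 H))) {i j : ℕ} (ht : Nat.card ↥(centralizer ({t} : Set H)) ∣ 2 ^ i * 3 * 5 ^ j)
    (h13 : ¬ 13 ∣ Nat.card H) : Good 5 H := by
  have h5F : Fact (Nat.Prime 5) := ⟨Nat.prime_five⟩
  have h3F : Fact (Nat.Prime 3) := ⟨Nat.prime_three⟩
  have hn := Cores.pPrimeCore_normal (G := H) 5
  have hco := Cores.pPrimeCore_coprime (G := H) 5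
  obtain ⟨c1, hc1⟩ := c1
  obtain ⟨c2, hc2⟩ := c2
  obtain ⟨c3, hc3⟩ := c3
  have hm : Nat.card ↥(pPrimeCore 5 H ⊓ centralizer ({t} : Set H)) ∣ 3 := by
    have h1 : Nat.card ↥(pPrimeCore 5 H ⊓ centralizer ({t} : Set H)) ∣ 2 ^ i * 3 * 5 ^ j :=
      (card_dvd_of_le inf_le_right).trans ht
    have h2 : Nat.Coprime (Nat.card ↥(pPrimeCore 5 H ⊓ centralizer ({t} : Set H))) (5 ^ j) :=
      (hco.coprime_dvd_left (card_dvd_of_le inf_le_left)).pow_right j
    have h3 : Nat.Coprime (Nat.card ↥(pPrimeCore 5 H ⊓ centralizer ({t} : Set H))) (2 ^ i) :=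
      (Nat.coprime_two_right.2 (Odd.of_dvd_nat hodd (card_dvd_of_le inf_le_left))).pow_right i
    exact h3.dvd_of_dvd_mul_left (h2.dvd_of_dvd_mul_right h1)
  have hcard : Nat.card ↥(pPrimeCore 5 H) ∣ 3 ^ 3 := by
    have h1 := Lib.KleinOrder.card_klein (pPrimeCore 5 H) hodd ha hb hab (fun k hk => hn.conj_mem k hk a)
      (fun k hk => hn.conj_mem k hk b)
    rw [card_inf_of_conj (O := pPrimeCore 5 H) hc1, card_inf_of_conj (O := pPrimeCore 5 H) hc2,
      card_inf_of_conj (O := pPrimeCore 5 H) hc3] at h1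
    refine (Dvd.intro _ h1).trans ?_
    rw [show 3 ^ 3 = 3 * 3 * 3 by norm_num]
    exact Nat.mul_dvd_mul (Nat.mul_dvd_mul hm hm) hm
  refine good_of_act_sylow fun r hr hr5 R0 => ?_
  have : Fact r.Prime := ⟨hr⟩
  set R : Subgroup H := (R0 : Subgroup ↥(pPrimeCore 5 H)).map (pPrimeCore 5 H).subtype with hRdef
  have hR : IsPGroup r ↥R := R0.2.map _
  have hRc : Nat.card ↥R ∣ 3 ^ 3 := by
    refine (card_dvd_of_le (?_ : R ≤ pPrimeCore 5 H)).trans hcard
    rintro _ ⟨y, -, rfl⟩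
    exact y.2
  obtain ⟨k, hk⟩ : ∃ k, Nat.card (R ⧸ frattini R) = r ^ k := by
    obtain ⟨m, hm⟩ := IsPGroup.iff_card.1 hR
    have hq : Nat.card (R ⧸ frattini R) ∣ Nat.card R := card_quotient_dvd_card _
    obtain ⟨k, -, hk⟩ := (Nat.dvd_prime_pow hr).1 (hm ▸ hq)
    exact ⟨k, hk⟩
  have hkd : r ^ k ∣ 3 ^ 3 := by
    rw [← hk]
    exact (card_quotient_dvd_card _).trans hRc
  by_cases hk1 : k ≤ 1
  · have h1 : Group.IsSolvable (MulAut (R ⧸ frattini R)) := BpNum.mulAut_solvable_of_le_one (r := r) hk hk1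
    infer_instance
  have hr3 : r = 3 := by
    have h1 : r ∣ 3 ^ 3 := (dvd_pow_self r (by omega)).trans hkd
    exact (Nat.prime_dvd_prime_iff_eq hr Nat.prime_three).1 (hr.dvd_of_dvd_pow h1)
  subst hr3
  have hk3 : k ≤ 3 := (Nat.pow_dvd_pow_iff_le_right (by norm_num)).1 hkd
  have hY : Nat.card ↥(BpNum.act R).range ∣ ∏ i : Fin k, (3 ^ k - 3 ^ (i : ℕ)) := by
    rw [← BpNum.card_mulAut (BpNum.quo_comm hR) (BpNum.quo_pow hR) hk]
    exact card_subgroup_dvd_card _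
  have hY13 : Nat.Coprime (Nat.card ↥(BpNum.act R).range) 13 := by
    refine ((Nat.Prime.coprime_iff_not_dvd (by norm_num)).2 fun h => h13 ?_).symm
    refine h.trans (dvd_trans ?_ (card_subgroup_dvd_card (normalizer (R : Set H))))
    exact card_range_dvd _
  refine BpNum.solvable_of_dvd (p := 2) (q := 3) (a := 5) (b := 3) Nat.prime_two Nat.prime_three ?_
  have hk2 : k = 2 ∨ k = 3 := by omega
  rcases hk2 with rfl | rfl
  · exact hY.trans (by simp [Fin.prod_univ_succ])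
  · have h1 : Nat.card ↥(BpNum.act R).range ∣ 2 ^ 5 * 3 ^ 3 * 13 := by simpa [Fin.prod_univ_succ] using hY
    exact hY13.dvd_of_dvd_mul_right h1

namespace HNFiveB

open Cfsg.Agent.HN.Pres Cfsg.Agent.HN.H0Basic
open Cfsg.Agent.HN.P1408 hiding ψ
open Cfsg.Agent.HN.NormalH (ψ)
open Cfsg.Agent.KFacts.HN
open Cfsg.Agent.CpAutHNFive Cfsg.Agent.CpAutHNFive.TFive Cfsg.Agent.CpAutHNFive.HTab
open Cfsg.Agent.CpAutHNFive.HFacts Cfsg.Agent.CpAutHNFive.TauFive Cfsg.Agent.CpAutHNFive.QD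
open Cfsg.Agent.CpAutHNFive.Main
open Cfsg.Agent.CpAutHN.Pairs (instSimple tt order_tt comm_of)

/-- `(1 2 3)` in `A7` -/
def c7 : alternatingGroup (Fin 7) := ⟨([1, 2, 3] : List (Fin 7)).formPerm, by
  rw [Equiv.Perm.mem_alternatingGroup]; decide +kernel⟩

theorem conj_c : c7 * u7 * c7⁻¹ = v7 := by
  apply Subtype.ext
  change ([1, 2, 3] : List (Fin 7)).formPerm * (([0, 1] : List (Fin 7)).formPerm * ([2, 3] : List (Fin 7)).formPerm) *
    (([1, 2, 3] : List (Fin 7)).formPerm)⁻¹ = ([0, 2] : List (Fin 7)).formPerm * ([1, 3] : List (Fin 7)).formPerm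
  decide +kernel

theorem conj_cc : c7 ^ 2 * u7 * (c7 ^ 2)⁻¹ = u7 * v7 := by
  apply Subtype.ext
  change ([1, 2, 3] : List (Fin 7)).formPerm ^ 2 *
    (([0, 1] : List (Fin 7)).formPerm * ([2, 3] : List (Fin 7)).formPerm) *
    (([1, 2, 3] : List (Fin 7)).formPerm ^ 2)⁻¹ = ([0, 1] : List (Fin 7)).formPerm * ([2, 3] : List (Fin 7)).formPerm *
    (([0, 2] : List (Fin 7)).formPerm * ([1, 3] : List (Fin 7)).formPerm)
  decide +kernel

theorem sq_u7 : u7 * u7 = 1 := by rw [← pow_two, ← order_u7, pow_orderOf_eq_one]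
theorem sq_v7 : v7 * v7 = 1 := by rw [← pow_two, ← order_v7, pow_orderOf_eq_one]

/-- `|C_{H0}(w2)| = 1200` -/
theorem card_two : Nat.card ↥(centralizer ({hw w2} : Set H0)) ∣ 2 ^ 4 * 3 * 5 ^ 2 := by
  have := finite_H0
  have he : hw we ∈ centralizer ({hw w2} : Set H0) := mem_centralizer_singleton_iff.2 e_comm
  have hw' : hw w2 ∈ centralizer ({hw w2} : Set H0) := mem_centralizer_singleton_iff.2 rfl
  have ht : hw wt ∈ centralizer ({hw w2} : Set H0) := mem_centralizer_singleton_iff.2 t_comm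
  have hg : hw wg ∈ centralizer ({hw w2} : Set H0) := mem_centralizer_singleton_iff.2 g_comm
  have hh : hw wh ∈ centralizer ({hw w2} : Set H0) := mem_centralizer_singleton_iff.2 h_comm
  have h25 : 25 ∣ Nat.card ↥(centralizer ({hw w2} : Set H0)) := by
    have h1 := mul_order_dvd (C := ↥(centralizer ({hw w2} : Set H0))) (a := ⟨hw we, he⟩) (b := ⟨hw w2, hw'⟩)
      (Subtype.ext e_comm) (inf_eq_bot_of_prime Nat.prime_five (by rw [← Subgroup.orderOf_coe]; exact order_e) (by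
        intro h
        apply e_not_mem
        obtain ⟨k, hk⟩ := mem_zpowers_iff.1 h
        exact mem_zpowers_iff.2 ⟨k, congrArg Subtype.val hk⟩))
    rw [← Subgroup.orderOf_coe, ← Subgroup.orderOf_coe] at h1
    change orderOf (hw we) * orderOf (hw w2) ∣ _ at h1
    rwa [order_e, order_w2] at h1
  have h3 : 3 ∣ Nat.card ↥(centralizer ({hw w2} : Set H0)) := by
    have h1 : orderOf (⟨hw wt, ht⟩ : ↥(centralizer ({hw w2} : Set H0))) ∣ _ := orderOf_dvd_natCard _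
    rw [← Subgroup.orderOf_coe] at h1
    change orderOf (hw wt) ∣ _ at h1
    rwa [order_t] at h1
  have h16 : 16 ∣ Nat.card ↥(centralizer ({hw w2} : Set H0)) := by
    have D : QDat (hw wg) (hw wh) := ⟨order_g, order_h, hgh⟩
    rw [← D.card]
    apply card_dvd_of_le
    rw [closure_le]
    rintro x (rfl | rfl)
    · exact hg
    · exact hh
  have hle := HCert.card_le_two
  have hpos : 0 < Nat.card ↥(centralizer ({hw w2} : Set H0)) := Nat.card_pos
  have h75 : 16 * 75 ∣ Nat.card ↥(centralizer ({hw w2} : Set H0)) :=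
    Nat.Coprime.mul_dvd_of_dvd_of_dvd (by norm_num) h16
      (Nat.Coprime.mul_dvd_of_dvd_of_dvd (m := 3) (n := 25) (by norm_num) h3 h25)
  have h1 := Nat.le_of_dvd hpos h75
  have h2 : Nat.card ↥(centralizer ({hw w2} : Set H0)) = 2 ^ 4 * 3 * 5 ^ 2 := by omega
  rw [h2]

/-- **the class 5A** -/
theorem good_w2 (FT : ∀ (K : Type) [Group K] [Finite K], Odd (Nat.card K) → Group.IsSolvable K)
    (h204 : ∀ (K : Type) [Group K] [Finite K] [IsSimpleGroup K], ¬ IsCyclic K → ∃ E : Subgroup K, IsKleinFour E) :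
    BpTab.Good 5 ↥(centralizer ({ψ (hw w2)} : Set G)) := by
  obtain ⟨g0, h0, w0, J0, u0, v0, X⟩ := exists_dat FT h204
  have hodd := X.odd_core
  obtain ⟨e⟩ := (main_cases FT h204 order_X5 order_tt tt_comm).resolve_left not_good
  let f : alternatingGroup (Fin 7) →* ↥(centralizer ({ψ (hw w2)} : Set G)) := e.toMonoidHom.comp jj
  have hf : Function.Injective f := e.injective.comp jj_inj
  have h4 : el (hw wg) g_comm ^ 4 = tz (hw w2) := by
    apply Subtype.ext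
    change (ψ (hw wg)) ^ 4 = ψ τ
    rw [← map_pow, g_four]
  obtain ⟨x, hx⟩ := exists_mem qdat not32 (a := f u7) (b := f v7) (by rw [orderOf_injective f hf, order_u7])
    (by rw [orderOf_injective f hf, order_v7]) (by rw [← map_mul, ← map_mul, uv7]) (fun h => ne7 (hf h))
  rw [h4] at hx
  -- the three involutions are conjugate
  have e1 : f c7 * f u7 * (f c7)⁻¹ = f v7 := by rw [← map_mul, ← map_inv, ← map_mul, conj_c]
  have e2 : f c7 ^ 2 * f u7 * (f c7 ^ 2)⁻¹ = f u7 * f v7 := by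
    rw [← map_pow, ← map_mul, ← map_inv, ← map_mul, conj_cc, map_mul]
  obtain ⟨y, hy⟩ : ∃ y, y * tz (hw w2) * y⁻¹ = f u7 := by
    rcases hx with hx | hx | hx
    · exact ⟨x, hx⟩
    · refine ⟨(f c7)⁻¹ * x, ?_⟩
      calc (f c7)⁻¹ * x * tz (hw w2) * ((f c7)⁻¹ * x)⁻¹ = (f c7)⁻¹ * (x * tz (hw w2) * x⁻¹) * f c7 := by group
        _ = (f c7)⁻¹ * (f c7 * f u7 * (f c7)⁻¹) * f c7 := by rw [hx, e1]
        _ = f u7 := by group
    · refine ⟨(f c7 ^ 2)⁻¹ * x, ?_⟩
      calc (f c7 ^ 2)⁻¹ * x * tz (hw w2) * ((f c7 ^ 2)⁻¹ * x)⁻¹ =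
          (f c7 ^ 2)⁻¹ * (x * tz (hw w2) * x⁻¹) * f c7 ^ 2 := by group
        _ = (f c7 ^ 2)⁻¹ * (f c7 ^ 2 * f u7 * (f c7 ^ 2)⁻¹) * f c7 ^ 2 := by rw [hx, e2]
        _ = f u7 := by group
  refine good_of_klein (t := tz (hw w2)) (a := f u7) (b := f v7) (i := 4) (j := 2)
    (by rw [← map_mul, sq_u7, map_one]) (by rw [← map_mul, sq_v7, map_one]) (by rw [← map_mul, ← map_mul, uv7])
    ⟨y, hy⟩ ⟨f c7 * y, ?_⟩ ⟨f c7 ^ 2 * y, ?_⟩ hodd ?_ ?_
  · calc f c7 * y * tz (hw w2) * (f c7 * y)⁻¹ = f c7 * (y * tz (hw w2) * y⁻¹) * (f c7)⁻¹ := by group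
      _ = f v7 := by rw [hy, e1]
  · calc f c7 ^ 2 * y * tz (hw w2) * (f c7 ^ 2 * y)⁻¹ =
        f c7 ^ 2 * (y * tz (hw w2) * y⁻¹) * (f c7 ^ 2)⁻¹ := by group
      _ = f u7 * f v7 := by rw [hy, e2]
  · rw [← Nat.card_congr (equiv_C (hw w2)).toEquiv]
    exact card_two
  · intro h
    have h1 := h.trans (card_subgroup_dvd_card (centralizer ({ψ (hw w2)} : Set G)))
    rw [Classes.card_HN] at h1
    norm_num at h1

end HNFiveB

end Cfsg.Agent.BpSpor
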