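import Cfsg.Agent.BpSpor.HNFiveA
import Cfsg.Agent.BpSpor.HNFiveB

/-!
# S1332: HN, `p = 5` (helper25)

* `good_cases` : elements commuting with `W0`; `good_main` : elements commuting with an involution;
* `good_five` : `Good 5 C(x)` for every `x` of order 5 of HN.
-/

set_option autoImplicit false

namespace Cfsg.Agent.BpSpor.HNFive

open Cfsg.Agent.HN.Pres Cfsg.Agent.HN.H0Basic
open Cfsg.Agent.HN.P1408 hiding ψ
open Cfsg.Agent.HN.XWords (W0 W0_sq)
open Cfsg.Agent.HN.NormalH (ψ)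
open Cfsg Cfsg.Agent
open Cfsg.Agent.KFacts.HN
open Cfsg.Agent.BpTab (good_of_solvable Good.congr)
open Cfsg.Agent.CpAutHNFive Cfsg.Agent.CpAutHNFive.LFive Cfsg.Agent.CpAutHNFive.PFive
open Cfsg.Agent.CpAutHNFive.TFive Cfsg.Agent.CpAutHNFive.HFacts
open Cfsg.Agent.CpAutHNFive.HTab hiding c5
open Cfsg.Agent.CpAutHNFive.TauFive (centralizer_pow map_centralizer cequiv cequiv_pow solvable_three)
open Subgroup

/-- elements commuting with `W0` -/
theorem good_cases (FT : ∀ (K : Type) [Group K] [Finite K], Odd (Nat.card K) → Group.IsSolvable K)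
    {x : G} (hx : orderOf x = 5) (hxW : x * W0 = W0 * x) : BpTab.Good 5 ↥(centralizer ({x} : Set G)) ∨
      ∃ v : G, IsConj (ψ τ) v ∧ v * x = x * v := by
  have h5F : Fact (Nat.Prime 5) := ⟨Nat.prime_five⟩
  have hxP : orderOf (⟨x, mem_PP.2 hxW⟩ : PP) = 5 := by rw [← Subgroup.orderOf_coe]; exact hx
  obtain ⟨g, m, hm1, hm5, h⟩ := conj_std hxP
  let y : PP := g * ⟨x, mem_PP.2 hxW⟩ ^ m * g⁻¹
  have hy : (y : G) = (g : G) * x ^ m * (g : G)⁻¹ := rfl
  have hy5 : orderOf y = 5 := by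
    have h1 : orderOf ((⟨x, mem_PP.2 hxW⟩ : PP) ^ m) = 5 := by
      rw [orderOf_pow, hxP]
      interval_cases m <;> rfl
    rw [← h1]
    exact MulEquiv.orderOf_eq (MulAut.conj g) _
  obtain ⟨e⟩ := cequiv_pow hx hm1 hm5 hy.symm
  rcases h with h | h | h
  · exact Or.inl ((HNFiveA.good_one FT hy5 h).good.congr e.symm)
  · rcases type_three FT h with h1 | ⟨v, hv, hvy⟩
    · exact Or.inl ((good_of_solvable h1).congr e.symm)
    · right
      refine ⟨(g : G)⁻¹ * v * g, hv.trans (isConj_iff.2 ⟨(g : G)⁻¹, by rw [inv_inv]⟩), ?_⟩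
      have h2 : (g : G)⁻¹ * v * g ∈ centralizer ({x ^ m} : Set G) := by
        rw [mem_centralizer_singleton_iff]
        have h3 : v * ((g : G) * x ^ m * (g : G)⁻¹) = (g : G) * x ^ m * (g : G)⁻¹ * v := hvy
        calc (g : G)⁻¹ * v * g * x ^ m = (g : G)⁻¹ * (v * ((g : G) * x ^ m * (g : G)⁻¹)) * g := by group
          _ = (g : G)⁻¹ * ((g : G) * x ^ m * (g : G)⁻¹ * v) * g := by rw [h3]
          _ = _ := by group
      rw [centralizer_pow hx hm1 hm5] at h2
      exact mem_centralizer_singleton_iff.1 h2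
  · exact Or.inl ((good_of_solvable (type_two FT hy5 h)).congr e.symm)

/-- `C(ψ w1)` is solvable -/
theorem solvable_w1 (FT : ∀ (K : Type) [Group K] [Finite K], Odd (Nat.card K) → Group.IsSolvable K) :
    Group.IsSolvable ↥(centralizer ({ψ (hw w1)} : Set G)) := by
  obtain ⟨y, hy5, h, ⟨e⟩⟩ := HNFiveA.w1_two
  have h1 := type_two FT hy5 h
  exact Group.isSolvable_of_surjective (f := e.symm.toMonoidHom) e.symm.surjective

/-- **Elements commuting with an involution** -/
theorem good_main (FT : ∀ (K : Type) [Group K] [Finite K], Odd (Nat.card K) → Group.IsSolvable K)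
    (h204 : ∀ (K : Type) [Group K] [Finite K] [IsSimpleGroup K], ¬ IsCyclic K → ∃ E : Subgroup K, IsKleinFour E)
    {x u : G} (hx : orderOf x = 5) (hu : orderOf u = 2) (hux : u * x = x * u) :
    BpTab.Good 5 ↥(centralizer ({x} : Set G)) := by
  have h5F : Fact (Nat.Prime 5) := ⟨Nat.prime_five⟩
  -- conjugates of `ψ τ`
  have key : ∀ v : G, IsConj (ψ τ) v → v * x = x * v → BpTab.Good 5 ↥(centralizer ({x} : Set G)) := by
    intro v hv hvx
    obtain ⟨c, hc⟩ := isConj_iff.1 hv.symm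
    have h1 : c * x * c⁻¹ * ψ τ = ψ τ * (c * x * c⁻¹) := by
      rw [← hc]
      calc c * x * c⁻¹ * (c * v * c⁻¹) = c * (x * v) * c⁻¹ := by group
        _ = c * (v * x) * c⁻¹ := by rw [hvx]
        _ = _ := by group
    obtain ⟨y, hy⟩ := emb.cent _ h1
    have hy5 : orderOf y = 5 := by
      rw [← orderOf_injective ψ emb.inj, hy, ← hx]
      exact MulEquiv.orderOf_eq (MulAut.conj c) x
    obtain ⟨g, m, hm1, hm5, w, hw', hg⟩ := five_conj hy5
    have hw5 : orderOf (ψ (hw w)) = 5 := by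
      rw [orderOf_injective _ emb.inj]
      rcases hw' with rfl | rfl | rfl
      · exact order_w1
      · exact order_w2
      · exact order_w3
    have h2 : (ψ g * c)⁻¹ * ψ (hw w) ^ m * ((ψ g * c)⁻¹)⁻¹ = x := by
      rw [← map_pow, ← hg, map_mul, map_mul, map_inv, hy]
      group
    obtain ⟨e⟩ := cequiv_pow hw5 hm1 hm5 h2
    rcases hw' with rfl | rfl | rfl
    · exact (good_of_solvable (solvable_w1 FT)).congr e
    · exact (HNFiveB.good_w2 FT h204).congr e
    · exact (good_of_solvable (solvable_three FT)).congr e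
  rcases Classes.inv_class hu with h | h
  · exact key u h.symm hux
  · obtain ⟨c, hc⟩ := isConj_iff.1 h
    have h1 : c * x * c⁻¹ * W0 = W0 * (c * x * c⁻¹) := by
      rw [← hc]
      calc c * x * c⁻¹ * (c * u * c⁻¹) = c * (x * u) * c⁻¹ := by group
        _ = c * (u * x) * c⁻¹ := by rw [hux]
        _ = _ := by group
    have h5 : orderOf (c * x * c⁻¹) = 5 := by
      rw [← hx]
      exact MulEquiv.orderOf_eq (MulAut.conj c) x
    rcases good_cases FT h5 h1 with h2 | ⟨v, hv, hvx⟩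
    · exact h2.congr (cequiv c x).symm
    · refine key (c⁻¹ * v * c) (hv.trans (isConj_iff.2 ⟨c⁻¹, by rw [inv_inv]⟩)) ?_
      calc c⁻¹ * v * c * x = c⁻¹ * (v * (c * x * c⁻¹)) * c := by group
        _ = c⁻¹ * (c * x * c⁻¹ * v) * c := by rw [hvx]
        _ = _ := by group

/-- **Every element of order 5** -/
theorem good_five (FT : ∀ (K : Type) [Group K] [Finite K], Odd (Nat.card K) → Group.IsSolvable K)
    (h204 : ∀ (K : Type) [Group K] [Finite K] [IsSimpleGroup K], ¬ IsCyclic K → ∃ E : Subgroup K, IsKleinFour E)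
    {x : G} (hx : orderOf x = 5) : BpTab.Good 5 ↥(centralizer ({x} : Set G)) := by
  have h5F : Fact (Nat.Prime 5) := ⟨Nat.prime_five⟩
  rcases Nat.even_or_odd (Nat.card ↥(centralizer ({x} : Set G))) with he | ho
  · have : Fact (Nat.Prime 2) := ⟨Nat.prime_two⟩
    obtain ⟨u, hu⟩ := exists_prime_orderOf_dvd_card' 2 (even_iff_two_dvd.1 he)
    exact good_main FT h204 hx (u := (u : G)) (by rw [Subgroup.orderOf_coe, hu])
      (mem_centralizer_singleton_iff.1 u.2)
  · exact good_of_solvable (FT _ ho)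

end Cfsg.Agent.BpSpor.HNFive
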