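import Cfsg.Agent.BpSpor.LocalCrit
import Cfsg.Agent.CpAutHN.RankOne
import Cfsg.Agent.CpAutTh.RankOne

/-!
# S1332, sporadic rows: one involution, no component (helper25)

* `noComp_of_unique` : `s` is the only involution of `C_H(s)`, `p ^ k` divides `|H|` but not `|C_H(s)|`: `NoComp p H`;
* `exists_conj_mul` : `x`, `y` commuting of order `p`, `p ^ 3 ∣ |C(y)|`, `p ^ 3 ∤ |C(x)|`: `x` is conjugate to `y ^ i x`
  for all `i`.
-/

set_option autoImplicit false

namespace Cfsg.Agent.BpSpor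

open Subgroup Cfsg
open Cfsg.Agent.BpTab Cfsg.Agent.Lib

universe u

section NC

variable {H : Type u} [Group H] [Finite H] {p : ℕ}

/-- **one involution, no component** -/
theorem noComp_of_unique (FT : ∀ (K : Type u) [Group K] [Finite K], Odd (Nat.card K) → Group.IsSolvable K)
    (hp : p.Prime) (hp2 : p ≠ 2) {s : H} (hs : orderOf s = 2) (hu : ∀ u : H, orderOf u = 2 → u * s = s * u → u = s)
    {k : ℕ} (hk : p ^ k ∣ Nat.card H) (hk' : ¬ p ^ k ∣ Nat.card ↥(centralizer ({s} : Set H))) : NoComp p H := by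
  have : Fact (Nat.Prime 2) := ⟨Nat.prime_two⟩
  have : Fact p.Prime := ⟨hp⟩
  have hn := Cores.pPrimeCore_normal (G := H) p
  have hco := Cores.pPrimeCore_coprime (G := H) p
  have hone : CpAutHN.RankOne.One H := (CpAutTh.RankOne.uInv_of_unique hs hu).1
  refine CpAutHN.RankOne.no_comp FT hp hp2 hone hs ?_
  intro hsR
  apply hk'
  obtain ⟨N, hN, hNodd, hsup⟩ := CpAut.TwoCov.exists_odd_sup hs (fun u hu' hc => by
    by_cases h1 : u = 1
    · exact Or.inl h1
    · exact Or.inr (hu u (orderOf_eq_prime (by rw [pow_two, hu']) h1) hc))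
  have hWodd : Odd (Nat.card ↥(N ⊓ pPrimeCore p H)) := Odd.of_dvd_nat hNodd (card_dvd_of_le inf_le_left)
  have h1 : N ≤ (N ⊓ pPrimeCore p H) ⊔ centralizer ({s} : Set H) := by
    refine CpAut.TwoCov.sup_eq_top hs (N ⊓ pPrimeCore p H) hWodd fun g hg => ⟨?_, ?_⟩
    · have h2 : g * s * g⁻¹ * s⁻¹ = g * (s * g⁻¹ * s⁻¹) := by group
      rw [h2]
      exact N.mul_mem hg (hN.conj_mem _ (N.inv_mem hg) s)
    · exact (pPrimeCore p H).mul_mem (hn.conj_mem s hsR g) ((pPrimeCore p H).inv_mem hsR)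
  have h2 : (N ⊓ pPrimeCore p H) ⊔ centralizer ({s} : Set H) = ⊤ := by
    rw [eq_top_iff, ← hsup]
    exact sup_le h1 le_sup_right
  exact CpAut.TwoCov.dvd_of_sup h2 hp (hco.coprime_dvd_left (card_dvd_of_le inf_le_right)) hk

end NC

section Conj

variable {G : Type u} [Group G] [Finite G] {p : ℕ}

/-- `p² ∣ |Q|`: the centralizer of an element of order `p` has order divisible by `p²` -/
theorem sq_dvd_centralizer (hp : p.Prime) {x : G} (hx : orderOf x = p) (h : p ^ 2 ∣ Nat.card G) :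
    p ^ 2 ∣ Nat.card ↥(centralizer ({x} : Set G)) := by
  have : Fact p.Prime := ⟨hp⟩
  have h1 : IsPGroup p ↥(zpowers x) := IsPGroup.of_card (n := 1) (by rw [Nat.card_zpowers, hx, pow_one])
  obtain ⟨S, hS⟩ := h1.exists_le_sylow
  have hxS : x ∈ (S : Subgroup G) := hS (mem_zpowers x)
  have hS2 : p ^ 2 ∣ Nat.card ↥(S : Subgroup G) := S.pow_dvd_card_of_pow_dvd_card (n := 2) h
  set D : Subgroup G := centralizer ({x} : Set G) ⊓ S with hD
  have hDp : IsPGroup p ↥D := S.2.to_le inf_le_right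
  have hle : zpowers x ≤ D := by
    rw [zpowers_le]
    exact ⟨mem_centralizer_singleton_iff.2 rfl, hxS⟩
  obtain ⟨n, hn⟩ := IsPGroup.iff_card.1 hDp
  by_cases h2 : 2 ≤ n
  · exact (pow_dvd_pow p h2).trans ((dvd_of_eq hn.symm).trans (card_dvd_of_le inf_le_left))
  · exfalso
    have hD1 : Nat.card ↥D ≤ p := by
      rw [hn]
      calc p ^ n ≤ p ^ 1 := Nat.pow_le_pow_right hp.pos (by omega)
        _ = p := pow_one p
    have h3 : zpowers x = D := eq_of_le_of_card_ge hle (by rw [Nat.card_zpowers, hx]; exact hD1)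
    -- the centre of `S`
    have hnt : Nontrivial ↥(S : Subgroup G) := by
      by_contra hcon
      rw [not_nontrivial_iff_subsingleton] at hcon
      rw [Nat.card_unique] at hS2
      have := Nat.le_of_dvd one_pos hS2
      have h4 := hp.two_le
      nlinarith
    have hcen : Nontrivial (center ↥(S : Subgroup G)) := S.isPGroup'.center_nontrivial
    obtain ⟨c, hc⟩ := exists_ne (1 : center ↥(S : Subgroup G))
    have hcS : ∀ y ∈ (S : Subgroup G), y * ((c : ↥(S : Subgroup G)) : G) = (c : ↥(S : Subgroup G)) * y := by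
      intro y hy
      exact congrArg Subtype.val (mem_center_iff.1 c.2 ⟨y, hy⟩)
    have hcD : ((c : ↥(S : Subgroup G)) : G) ∈ zpowers x := by
      rw [h3]
      exact ⟨mem_centralizer_singleton_iff.2 (hcS x hxS).symm, (c : ↥(S : Subgroup G)).2⟩
    have hc1 : ((c : ↥(S : Subgroup G)) : G) ≠ 1 := fun h => hc (Subtype.ext (Subtype.ext h))
    have hzc : zpowers ((c : ↥(S : Subgroup G)) : G) = zpowers x := by
      apply eq_of_le_of_card_ge (zpowers_le.2 hcD)
      rw [Nat.card_zpowers, Nat.card_zpowers, hx]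
      have h4 : orderOf ((c : ↥(S : Subgroup G)) : G) ∣ p := by
        rw [← Nat.card_zpowers]
        refine (card_dvd_of_le (zpowers_le.2 hcD)).trans ?_
        rw [Nat.card_zpowers, hx]
      rcases (Nat.dvd_prime hp).1 h4 with h5 | h5
      · exact (hc1 (orderOf_eq_one_iff.1 h5)).elim
      · rw [h5]
    have hxc : x ∈ zpowers ((c : ↥(S : Subgroup G)) : G) := by rw [hzc]; exact mem_zpowers x
    obtain ⟨j, hj⟩ := mem_zpowers_iff.1 hxc
    have hSD : (S : Subgroup G) ≤ D := by
      intro y hy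
      refine ⟨mem_centralizer_singleton_iff.2 ?_, hy⟩
      rw [← hj]
      exact ((show Commute y ((c : ↥(S : Subgroup G)) : G) from hcS y hy).zpow_right j).eq
    have h4 := Nat.le_of_dvd Nat.card_pos (hS2.trans (card_dvd_of_le hSD))
    have h5 := hp.two_le
    nlinarith

/-- conjugates of `x` in `x ⟨y⟩`, `y` central -/
theorem exists_conj_mul_center (hp : p.Prime) {x y : G} (hx : orderOf x = p) (hy : orderOf y = p)
    (hyc : ∀ g : G, g * y = y * g) (hne : x ∉ zpowers y) (h3 : p ^ 3 ∣ Nat.card G)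
    (h3' : ¬ p ^ 3 ∣ Nat.card ↥(centralizer ({x} : Set G))) (i : ℕ) : ∃ g : G, g * x * g⁻¹ = y ^ i * x := by
  have : Fact p.Prime := ⟨hp⟩
  have hZn : (zpowers y).Normal := by
    refine ⟨fun n hn g => ?_⟩
    obtain ⟨k, rfl⟩ := mem_zpowers_iff.1 hn
    have h1 : Commute g (y ^ k) := (show Commute g y from hyc g).zpow_right k
    rw [h1.eq, mul_inv_cancel_right]
    exact hn
  let π := QuotientGroup.mk' (zpowers y)
  have hcardZ : Nat.card ↥(zpowers y) = p := by rw [Nat.card_zpowers, hy]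
  have hxπ : orderOf (π x) = p := by
    have h1 : orderOf (π x) ∣ p := hx ▸ orderOf_map_dvd π x
    rcases (Nat.dvd_prime hp).1 h1 with h2 | h2
    · exact (hne ((QuotientGroup.eq_one_iff _).1 (orderOf_eq_one_iff.1 h2))).elim
    · exact h2
  have hQ : p ^ 2 ∣ Nat.card (G ⧸ zpowers y) := by
    have h1 := card_eq_card_quotient_mul_card_subgroup (zpowers y)
    rw [hcardZ] at h1
    have h2 : p ^ 2 * p ∣ Nat.card (G ⧸ zpowers y) * p := by
      rw [← h1, ← pow_succ]
      exact h3
    exact Nat.dvd_of_mul_dvd_mul_right hp.pos h2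
  have hC2 := sq_dvd_centralizer hp hxπ hQ
  set D : Subgroup G := (centralizer ({π x} : Set (G ⧸ zpowers y))).comap π with hD
  have hmem : ∀ n : G, n ∈ D ↔ n * x * n⁻¹ * x⁻¹ ∈ zpowers y := by
    intro n
    rw [hD, mem_comap, mem_centralizer_singleton_iff, ← QuotientGroup.eq_one_iff, ← map_mul, ← map_mul]
    change π (n * x) = π (x * n) ↔ π (n * x * n⁻¹ * x⁻¹) = 1
    rw [map_mul, map_mul, map_mul, map_mul, map_mul, map_inv, map_inv, mul_inv_eq_one, mul_inv_eq_iff_eq_mul]
  have hDcard : p ^ 3 ∣ Nat.card ↥D := by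
    have hle : zpowers y ≤ D := by
      intro z hz
      rw [hmem]
      have h1 : x * z⁻¹ * x⁻¹ ∈ zpowers y := hZn.conj_mem _ (inv_mem hz) x
      have h2 : z * x * z⁻¹ * x⁻¹ = z * (x * z⁻¹ * x⁻¹) := by group
      rw [h2]
      exact mul_mem hz h1
    have h1 : (zpowers y).relIndex D = Nat.card ↥(centralizer ({π x} : Set (G ⧸ zpowers y))) := by
      have h2 : (zpowers y).relIndex D = Nat.card ↥(D.map π) := by
        have h5 := relIndex_ker π (K := D)
        rw [QuotientGroup.ker_mk'] at h5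
        exact h5
      rw [h2, hD, map_comap_eq_self_of_surjective (QuotientGroup.mk'_surjective _)]
    have h2 : Nat.card ↥(zpowers y) * (zpowers y).relIndex D = Nat.card ↥D := by
      have h4 := ((zpowers y).subgroupOf D).card_mul_index
      rw [Nat.card_congr (subgroupOfEquivOfLe hle).toEquiv] at h4
      exact h4
    rw [← h2, h1, hcardZ, mul_comm, pow_succ]
    exact Nat.mul_dvd_mul_right hC2 p
  -- the commutator map
  have hyD : ∀ (n : G) (z : G), z ∈ zpowers y → n * z = z * n := by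
    intro n z hz
    obtain ⟨k, rfl⟩ := mem_zpowers_iff.1 hz
    exact ((show Commute n y from hyc n).zpow_right k).eq
  let φ : ↥D →* ↥(zpowers y) :=
    { toFun := fun n => ⟨(n : G) * x * (n : G)⁻¹ * x⁻¹, (hmem n).1 n.2⟩
      map_one' := by
        apply Subtype.ext
        change (1 : G) * x * (1 : G)⁻¹ * x⁻¹ = 1
        group
      map_mul' := by
        intro a b
        apply Subtype.ext
        change (a : G) * b * x * ((a : G) * b)⁻¹ * x⁻¹ =
          (a : G) * x * (a : G)⁻¹ * x⁻¹ * ((b : G) * x * (b : G)⁻¹ * x⁻¹)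
        have h1 := hyD ((a : G) * x * (a : G)⁻¹ * x⁻¹) _ ((hmem b).1 b.2)
        have h2 := hyD (a : G) _ ((hmem b).1 b.2)
        calc (a : G) * b * x * ((a : G) * b)⁻¹ * x⁻¹
            = (a : G) * ((b : G) * x * (b : G)⁻¹ * x⁻¹) * x * (a : G)⁻¹ * x⁻¹ := by group
          _ = ((b : G) * x * (b : G)⁻¹ * x⁻¹) * ((a : G) * x * (a : G)⁻¹ * x⁻¹) := by rw [h2]; group
          _ = _ := h1.symm }
  have hker : ¬ p ^ 3 ∣ Nat.card ↥φ.ker := by
    intro h1
    apply h3'
    refine h1.trans ?_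
    have hmem' : ∀ n : ↥φ.ker, ((n : ↥D) : G) ∈ centralizer ({x} : Set G) := by
      intro n
      have h2 : ((n : ↥D) : G) * x * ((n : ↥D) : G)⁻¹ * x⁻¹ = 1 := congrArg Subtype.val n.2
      rw [mul_inv_eq_one, mul_inv_eq_iff_eq_mul] at h2
      exact mem_centralizer_singleton_iff.2 h2
    have h4 : (φ.ker.map D.subtype) ≤ centralizer ({x} : Set G) := by
      rintro _ ⟨n, hn, rfl⟩
      exact hmem' ⟨n, hn⟩
    have h5 := card_dvd_of_le h4
    rwa [card_map_of_injective D.subtype_injective] at h5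
  have hsurj : Function.Surjective φ := by
    rw [← MonoidHom.range_eq_top]
    have h1 : Nat.card ↥φ.range ∣ p := by
      have h2 := card_subgroup_dvd_card φ.range
      rwa [hcardZ] at h2
    rcases (Nat.dvd_prime hp).1 h1 with h2 | h2
    · exfalso
      apply hker
      have h4 := card_mul_index φ.ker
      rw [index_ker, h2, mul_one] at h4
      rw [h4]
      exact hDcard
    · exact eq_top_of_card_eq _ (by rw [h2, hcardZ])
  obtain ⟨n, hn⟩ := hsurj ⟨y ^ i, pow_mem (mem_zpowers _) i⟩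
  have h1 : (n : G) * x * (n : G)⁻¹ * x⁻¹ = y ^ i := congrArg Subtype.val hn
  exact ⟨n, by rw [← h1]; group⟩

/-- **conjugates of `x` in `x ⟨y⟩`** -/
theorem exists_conj_mul (hp : p.Prime) {x y : G} (hx : orderOf x = p) (hy : orderOf y = p) (hxy : x * y = y * x)
    (hne : x ∉ zpowers y) (h3 : p ^ 3 ∣ Nat.card ↥(centralizer ({y} : Set G)))
    (h3' : ¬ p ^ 3 ∣ Nat.card ↥(centralizer ({x} : Set G))) (i : ℕ) :
    ∃ g : G, g * x * g⁻¹ = y ^ i * x := by
  obtain ⟨n, hn⟩ := exists_conj_mul_center (G := ↥(centralizer ({y} : Set G))) hp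
    (x := ⟨x, mem_centralizer_singleton_iff.2 hxy⟩) (y := ⟨y, mem_centralizer_singleton_iff.2 rfl⟩)
    (by rw [Subgroup.orderOf_mk, hx]) (by rw [Subgroup.orderOf_mk, hy])
    (fun g => Subtype.ext (mem_centralizer_singleton_iff.1 g.2)) (by
      intro h
      obtain ⟨k, hk⟩ := mem_zpowers_iff.1 h
      exact hne (mem_zpowers_iff.2 ⟨k, congrArg Subtype.val hk⟩)) h3 (by
      intro h
      apply h3'
      refine h.trans ?_
      have h4 : (centralizer ({(⟨x, mem_centralizer_singleton_iff.2 hxy⟩ : ↥(centralizer ({y} : Set G)))} :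
          Set ↥(centralizer ({y} : Set G)))).map (centralizer ({y} : Set G)).subtype ≤ centralizer ({x} : Set G) := by
        rintro _ ⟨m, hm, rfl⟩
        exact mem_centralizer_singleton_iff.2 (congrArg Subtype.val (mem_centralizer_singleton_iff.1 hm))
      have h5 := card_dvd_of_le h4
      rwa [card_map_of_injective (centralizer ({y} : Set G)).subtype_injective] at h5) i
  exact ⟨n, congrArg Subtype.val hn⟩

end Conj

end Cfsg.Agent.BpSpor
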