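import Cfsg.Agent.CpAutHNFive.Main
import Cfsg.Agent.BpSpor.UniqueNC
import Cfsg.Agent.BpSpor.UniqueCrit

/-!
# S1332: HN, `p = 5` : the elements of type I (helper25)

* `dvd_ψw1` : `125 ∣ |C(ψ w1)|`; `dvd_two` : `125 ∣ |C(x)|`, `x` of type II;
* `dvd_one` : `125 ∣ |C(x)|`, `x` of type I; `good_one` : `Good 5 C(x)`, `x` of type I.
(Everything about the elements of order 5 of HN is taken from helper89's files `CpAutHNFive/*`.)
-/

set_option autoImplicit false

namespace Cfsg.Agent.BpSpor.HNFiveA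

open Cfsg.Agent.HN.Pres Cfsg.Agent.HN.H0Basic
open Cfsg.Agent.HN.P1408 hiding ψ
open Cfsg.Agent.HN.XWords (W0 W0_sq)
open Cfsg.Agent.HN.NormalH (ψ)
open Cfsg Cfsg.Agent
open Cfsg.Agent.KFacts.HN
open Cfsg.Agent.CpAutTh.RankOne (UInv)
open Cfsg.Agent.CpAutHN.PPFacts (isPGroup_ker)
open Cfsg.Agent.CpAutHNFive Cfsg.Agent.CpAutHNFive.LFive Cfsg.Agent.CpAutHNFive.PFive
open Cfsg.Agent.CpAutHNFive.TFive Cfsg.Agent.CpAutHNFive.HFacts
open Cfsg.Agent.CpAutHNFive.HTab hiding c5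
open Cfsg.Agent.CpAutHNFive.TauFive
open Subgroup

/-- **`125 ∣ |C(w1)|`** -/
theorem dvd_w1 : 5 ^ 3 ∣ Nat.card ↥(centralizer ({hw w1} : Set H0)) := by
  have := finite_H0
  have h1 : hw [0, 4, 3, 0, 3, 0, 3, 1, 2, 4, 2, 1, 2] * hw w1 * (hw [0, 4, 3, 0, 3, 0, 3, 1, 2, 4, 2, 1, 2])⁻¹ = hw wz := by
    rw [mul_inv_eq_iff_eq_mul, ← hw_append, ← hw_append]
    exact hw_eq (by decide +kernel)
  rw [← card_cent_of_conj h1, ← card_closure HTab.c5 d5 z5 z1 cz dz cd]
  apply card_dvd_of_le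
  rw [closure_le]
  rintro y (rfl | rfl)
  · exact mem_centralizer_singleton_iff.2 cz
  · exact mem_centralizer_singleton_iff.2 dz

theorem dvd_ψw1 : 5 ^ 3 ∣ Nat.card ↥(centralizer ({ψ (hw w1)} : Set G)) := by
  have h1 : (centralizer ({hw w1} : Set H0)).map ψ ≤ centralizer ({ψ (hw w1)} : Set G) := by
    rintro _ ⟨v, hv, rfl⟩
    rw [mem_centralizer_singleton_iff, ← map_mul, ← map_mul, mem_centralizer_singleton_iff.1 hv]
  have h2 := card_dvd_of_le h1
  rw [card_map_of_injective emb.inj] at h2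
  exact dvd_w1.trans h2

theorem hW : W0 = ψ (Cfsg.Agent.HN.Syl.a * τ) := Cfsg.Agent.HN.XWords.W0_eq

theorem w1_PP : ψ (hw w1) ∈ PP := by
  have hc : Cfsg.Agent.HN.Syl.a * τ * hw w1 = hw w1 * (Cfsg.Agent.HN.Syl.a * τ) := by
    rw [mul_assoc, ← τ_comm, ← mul_assoc, a_comm, mul_assoc]
  rw [mem_PP, hW, ← map_mul, ← map_mul, hc]

/-- the group `⟨τ⟩ × ⟨q⟩` in `C(ψ w1) ∩ C(W0)` -/
theorem eight_dvd : 8 ∣ Nat.card ↥(centralizer ({ψ (hw w1)} : Set G) ⊓ centralizer ({W0} : Set G) : Subgroup G) := by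
  have := finite_H0
  have h1 : (zpowers τ ⊔ zpowers (hw wq)).map ψ ≤
      centralizer ({ψ (hw w1)} : Set G) ⊓ centralizer ({W0} : Set G) := by
    rw [map_le_iff_le_comap, sup_le_iff, zpowers_le, zpowers_le]
    constructor
    · refine ⟨mem_centralizer_singleton_iff.2 ?_, mem_centralizer_singleton_iff.2 ?_⟩
      · rw [← map_mul, ← map_mul, τ_comm]
      · rw [hW, ← map_mul, ← map_mul, ← τ_comm (Cfsg.Agent.HN.Syl.a * τ)]
    · refine ⟨mem_centralizer_singleton_iff.2 ?_, mem_centralizer_singleton_iff.2 ?_⟩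
      · rw [← map_mul, ← map_mul, q_comm]
      · have h2 : hw wq * (Cfsg.Agent.HN.Syl.a * τ) = Cfsg.Agent.HN.Syl.a * τ * hw wq := by
          rw [← mul_assoc, q_comm_a, mul_assoc, τ_comm, ← mul_assoc]
        rw [hW, ← map_mul, ← map_mul, h2]
  have h8 : 8 ∣ Nat.card ↥(zpowers τ ⊔ zpowers (hw wq) : Subgroup H0) := by
    have ht : τ ∈ zpowers τ ⊔ zpowers (hw wq) := mem_sup_left (mem_zpowers _)
    have hq : hw wq ∈ zpowers τ ⊔ zpowers (hw wq) := mem_sup_right (mem_zpowers _)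
    have h3 := mul_order_dvd (C := ↥(zpowers τ ⊔ zpowers (hw wq) : Subgroup H0)) (a := ⟨τ, ht⟩) (b := ⟨hw wq, hq⟩)
      (Subtype.ext (τ_comm _).symm)
      (inf_eq_bot_of_prime Nat.prime_two (by rw [← Subgroup.orderOf_coe]; exact order_τ) (by
        intro h
        apply τ_not_mem
        obtain ⟨k, hk⟩ := mem_zpowers_iff.1 h
        exact mem_zpowers_iff.2 ⟨k, congrArg Subtype.val hk⟩))
    rw [← Subgroup.orderOf_coe, ← Subgroup.orderOf_coe] at h3
    change orderOf τ * orderOf (hw wq) ∣ _ at h3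
    rw [order_τ, order_q] at h3
    exact h3
  have h9 := card_dvd_of_le h1
  rw [card_map_of_injective emb.inj] at h9
  exact h8.trans h9

/-- `C(ψ w1)` has commuting involutions -/
theorem not_uInv : ¬ UInv ↥(centralizer ({ψ (hw w1)} : Set G)) := by
  intro h
  have : Fact (Nat.Prime 2) := ⟨Nat.prime_two⟩
  have hq2 : orderOf (hw wq ^ 2) = 2 := by
    apply orderOf_eq_prime _ q_sq_ne
    rw [← pow_mul]
    exact q_four
  have hqc : hw wq ^ 2 * hw w1 = hw w1 * hw wq ^ 2 := ((show Commute (hw wq) (hw w1) from q_comm).pow_left 2).eq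
  have h1 := h ⟨ψ τ, mem_centralizer_singleton_iff.2 (by rw [← map_mul, ← map_mul, τ_comm])⟩
    ⟨ψ (hw wq ^ 2), mem_centralizer_singleton_iff.2 (by rw [← map_mul, ← map_mul, hqc])⟩
    (by rw [Subgroup.orderOf_mk, orderOf_injective _ emb.inj, order_τ])
    (by rw [Subgroup.orderOf_mk, orderOf_injective _ emb.inj, hq2])
    (Subtype.ext (by
      change ψ τ * ψ (hw wq ^ 2) = ψ (hw wq ^ 2) * ψ τ
      rw [← map_mul, ← map_mul, τ_comm]))
  apply τ_not_mem
  rw [emb.inj (congrArg Subtype.val h1)]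
  exact pow_mem (mem_zpowers _) 2

/-- `ψ w1` is of type II -/
theorem w1_two : ∃ y : PP, orderOf y = 5 ∧ ρ y = φA c5 * φB (c5 ^ 3) ∧
    Nonempty (↥(centralizer ({ψ (hw w1)} : Set G)) ≃* ↥(centralizer ({(y : G)} : Set G))) := by
  let x : PP := ⟨ψ (hw w1), w1_PP⟩
  have hox : orderOf (ψ (hw w1)) = 5 := by rw [orderOf_injective _ emb.inj, order_w1]
  have hx : orderOf x = 5 := by rw [← Subgroup.orderOf_coe]; exact hox
  obtain ⟨g, m, hm1, hm5, h⟩ := conj_std hx
  let y : PP := g * x ^ m * g⁻¹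
  have hy5 : orderOf y = 5 := by
    have h1 : orderOf (x ^ m) = 5 := by
      rw [orderOf_pow, hx]
      interval_cases m <;> rfl
    rw [← h1]
    exact MulEquiv.orderOf_eq (MulAut.conj g) _
  have hy : (g : G) * ψ (hw w1) ^ m * (g : G)⁻¹ = (y : G) := rfl
  obtain ⟨e⟩ := cequiv_pow hox hm1 hm5 hy
  rcases h with h | h | h
  · exfalso
    have h1 := (CpAutTh.RankOne.uInv_of_unique (order_sx y) (unique_one h)).1
    apply not_uInv
    intro a b ha hb hab
    apply e.injective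
    apply h1
    · rw [MulEquiv.orderOf_eq, ha]
    · rw [MulEquiv.orderOf_eq, hb]
    · rw [← map_mul, hab, map_mul]
  · exfalso
    have h2 := card_three (x := y) h
    rw [card_pair] at h2
    have h3 : (centralizer ({ψ (hw w1)} : Set G) ⊓ centralizer ({W0} : Set G)).map (MulAut.conj (g : G)).toMonoidHom =
        centralizer ({(y : G)} : Set G) ⊓ centralizer ({W0} : Set G) := by
      have hgW : (g : G) * W0 * (g : G)⁻¹ = W0 := by rw [mem_PP.1 g.2, mul_inv_cancel_right]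
      rw [Subgroup.map_inf _ _ _ (MulAut.conj (g : G)).injective, ← centralizer_pow hox hm1 hm5, map_centralizer,
        map_centralizer, hgW, hy]
    rw [← h3] at h2
    rw [← Nat.card_congr ((centralizer ({ψ (hw w1)} : Set G) ⊓ centralizer ({W0} : Set G)).equivMapOfInjective
      (MulAut.conj (g : G)).toMonoidHom (MulAut.conj (g : G)).injective).toEquiv] at h2
    have h10 := eight_dvd.trans h2
    norm_num at h10
  · exact ⟨y, hy5, h, ⟨e⟩⟩

/-- a type II element with `125 ∣ |C(x)|` -/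
theorem exists_two : ∃ x : PP, orderOf x = 5 ∧ ρ x = φA c5 * φB (c5 ^ 3) ∧
    5 ^ 3 ∣ Nat.card ↥(centralizer ({(x : G)} : Set G)) := by
  obtain ⟨y, hy5, h, ⟨e⟩⟩ := w1_two
  refine ⟨y, hy5, h, ?_⟩
  have h20 : Nat.card ↥(centralizer ({ψ (hw w1)} : Set G)) = Nat.card ↥(centralizer ({(y : G)} : Set G)) :=
    Nat.card_congr e.toEquiv
  rw [← h20]
  exact dvd_ψw1

/-- **type II** -/
theorem dvd_two {x : PP} (hx : orderOf x = 5) (h : ρ x = φA c5 * φB (c5 ^ 3)) :
    5 ^ 3 ∣ Nat.card ↥(centralizer ({(x : G)} : Set G)) := by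
  obtain ⟨y, hy, hρ, hd⟩ := exists_two
  obtain ⟨q, -, hq⟩ := CpAutTh.RankOne.conj_of_quot Nat.prime_two Nat.prime_five (by norm_num) ρ isPGroup_ker hy hx
    (hρ.trans h.symm)
  have h1 : (q : G) * y * (q : G)⁻¹ = x := congrArg Subtype.val hq
  rw [card_cent_of_conj h1]
  exact hd

/-- a lift of `φB c5` commuting with `x` -/
theorem exists_B {x : PP} (hx : orderOf x = 5) (h : ρ x = φA c5) :
    ∃ z : PP, z ^ 5 = 1 ∧ ρ z = φB c5 ∧ z * x = x * z := by
  obtain ⟨g, hg⟩ := ρ_surj (φB c5)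
  obtain ⟨q, hq, hqg⟩ := CpAutTh.RankOne.exists_comm Nat.prime_two Nat.prime_five (by norm_num) ρ isPGroup_ker hx
    (g := g) (by rw [hg, h]; exact (comm_AB c5 c5).symm)
  have h1 : ρ (q * g) = φB c5 := by rw [map_mul, MonoidHom.mem_ker.1 hq, one_mul, hg]
  have h5 : (q * g) ^ 5 ∈ ρ.ker := by
    rw [MonoidHom.mem_ker, map_pow, h1, ← map_pow, c5_pow, map_one]
  obtain ⟨k, hk⟩ := isPGroup_ker ⟨_, h5⟩
  have hk' : ((q * g) ^ 5) ^ 2 ^ k = 1 := congrArg Subtype.val hk
  refine ⟨(q * g) ^ (16 ^ k), ?_, ?_, ?_⟩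
  · rw [← pow_mul, mul_comm, pow_mul, show 16 ^ k = 2 ^ k * 8 ^ k by rw [← mul_pow]; norm_num, pow_mul, hk', one_pow]
  · rw [map_pow, h1, ← map_pow]
    congr 1
    have h2 : 16 ^ k % 5 = 1 := by
      rw [Nat.pow_mod]
      norm_num
    rw [pow_mod5 c5_pow, h2, pow_one]
  · exact ((show Commute (q * g) x from hqg).pow_left _).eq

/-- **type I** -/
theorem dvd_one {x : PP} (hx : orderOf x = 5) (h : ρ x = φA c5) :
    5 ^ 3 ∣ Nat.card ↥(centralizer ({(x : G)} : Set G)) := by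
  by_contra hcon
  have h5F : Fact (Nat.Prime 5) := ⟨Nat.prime_five⟩
  obtain ⟨z, hz5, hz, hzx⟩ := exists_B hx h
  have hx5 : x ^ 5 = 1 := by rw [← hx, pow_orderOf_eq_one]
  have hcm : Commute x z := hzx.symm
  -- the type II element
  have hy5 : (x * z ^ 3) ^ 5 = 1 := by
    rw [(hcm.pow_right 3).mul_pow, hx5, one_mul, ← pow_mul, mul_comm, pow_mul, hz5, one_pow]
  have hρy : ρ (x * z ^ 3) = φA c5 * φB (c5 ^ 3) := by rw [map_mul, map_pow, h, hz, map_pow]
  have hρA : ∀ i j k l : ℕ, φA (c5 ^ i) * φB (c5 ^ j) = φA (c5 ^ k) * φB (c5 ^ l) → i % 5 = k % 5 ∧ j % 5 = l % 5 := by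
    intro i j k l hij
    obtain ⟨h1, h2⟩ := φ2_inj (a := c5 ^ i) (b := c5 ^ j) (a' := c5 ^ k) (b' := c5 ^ l) hij
    have h3 : i ≡ k [MOD 5] := by rw [← c5_order]; exact pow_eq_pow_iff_modEq.1 h1
    have h4 : j ≡ l [MOD 5] := by rw [← c5_order]; exact pow_eq_pow_iff_modEq.1 h2
    exact ⟨h3, h4⟩
  have hy1 : x * z ^ 3 ≠ 1 := by
    intro h1
    rw [h1, map_one] at hρy
    have h2 := hρA 0 0 1 3 (by rw [pow_zero, map_one, map_one, one_mul, pow_one]; exact hρy)
    omega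
  have hoy : orderOf (x * z ^ 3) = 5 := orderOf_eq_prime hy5 hy1
  have hd := dvd_two hoy hρy
  have hoxG : orderOf (x : G) = 5 := by rw [Subgroup.orderOf_coe, hx]
  have hoyG : orderOf ((x * z ^ 3 : PP) : G) = 5 := by rw [Subgroup.orderOf_coe, hoy]
  have hxy : (x : G) * ((x * z ^ 3 : PP) : G) = ((x * z ^ 3 : PP) : G) * x :=
    congrArg Subtype.val (((Commute.refl x).mul_right (hcm.pow_right 3)).eq)
  have hne : (x : G) ∉ zpowers ((x * z ^ 3 : PP) : G) := by
    intro h1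
    obtain ⟨k, hk5, hk⟩ := mem_zpowers_lt (by norm_num : 0 < 5) (by rw [← hoyG, pow_orderOf_eq_one]) h1
    have h2 : x = (x * z ^ 3) ^ k := Subtype.ext hk
    have h3 : φA c5 = (φA c5 * φB (c5 ^ 3)) ^ k := by rw [← hρy, ← map_pow, ← h2, h]
    rw [pow_AB, ← pow_mul] at h3
    have h4 := hρA 1 0 k (3 * k) (by rw [pow_one, pow_zero, map_one, mul_one]; exact h3)
    omega
  obtain ⟨g, hg⟩ := exists_conj_mul Nat.prime_five hoxG hoyG hxy hne hd hcon 3
  -- `y ^ 3 x = (x z) ^ 4`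
  have hxz5 : (x * z) ^ 5 = 1 := by rw [hcm.mul_pow, hx5, hz5, one_mul]
  have hρxz : ρ (x * z) = φA c5 * φB c5 := by rw [map_mul, h, hz]
  have hxz1 : x * z ≠ 1 := by
    intro h1
    rw [h1, map_one] at hρxz
    have h2 := hρA 0 0 1 1 (by rw [pow_zero, map_one, map_one, one_mul, pow_one]; exact hρxz)
    omega
  have hoxz : orderOf (x * z) = 5 := orderOf_eq_prime hxz5 hxz1
  have hoxzG : orderOf ((x * z : PP) : G) = 5 := by rw [Subgroup.orderOf_coe, hoxz]
  have key : (x * z ^ 3) ^ 3 * x = (x * z) ^ 4 := by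
    rw [(hcm.pow_right 3).mul_pow, ← pow_mul, hcm.mul_pow]
    have h1 : z ^ (3 * 3) = z ^ 4 := by
      rw [show 3 * 3 = 5 + 4 from rfl, pow_add, hz5, one_mul]
    rw [h1, mul_assoc, ((hcm.pow_right 4).eq).symm, ← mul_assoc, ← pow_succ]
  have hg' : (g : G) * x * g⁻¹ = ((x * z : PP) : G) ^ 4 := by
    rw [hg]
    exact congrArg Subtype.val key
  -- `C(x) ≅ C(x z)`
  have hcent : centralizer ({((x * z : PP) : G) ^ 4} : Set G) = centralizer ({((x * z : PP) : G)} : Set G) :=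
    centralizer_pow hoxzG (by norm_num) (by norm_num)
  let e : ↥(centralizer ({(x : G)} : Set G)) ≃* ↥(centralizer ({((x * z : PP) : G)} : Set G)) :=
    ((cequiv g (x : G)).trans (MulEquiv.subgroupCongr (by rw [hg']))).trans (MulEquiv.subgroupCongr hcent)
  -- the involution
  have huc := (CpAutTh.RankOne.uInv_of_unique (order_sx x) (unique_one h)).2
  obtain ⟨c, hc⟩ := huc (e.symm (sx (x * z))) (by rw [MulEquiv.orderOf_eq, order_sx])
  have h100 := card_three (x := x * z) hρxz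
  have h3 : 3 ∣ Nat.card ↥(centralizer ({sx x} : Set ↥(centralizer ({(x : G)} : Set G)))) := by
    have h4 : Nat.card ↥φB.range ∣ Nat.card ↥(fC x).range := by
      apply card_dvd_of_le
      rintro _ ⟨b, rfl⟩
      rw [mem_range hx, h]
      exact (comm_AB c5 b).symm
    have h6 : Nat.card ↥φB.range = Nat.card A5 := (Nat.card_congr (MonoidHom.ofInjective φB_inj).toEquiv).symm
    have h7 : Nat.card A5 = 60 := by
      rw [nat_card_alternatingGroup, Nat.card_eq_fintype_card, Fintype.card_fin]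
      rfl
    rw [h6, h7] at h4
    have h8 : Nat.card ↥(fC x).range ∣ Nat.card ↥(centralizer ({sx x} : Set ↥(centralizer ({(x : G)} : Set G)))) := by
      rw [← (fC x).ker.card_mul_index, index_ker]
      exact dvd_mul_left _ _
    exact (dvd_trans (by norm_num) h4).trans h8
  have h4 : Nat.card ↥(centralizer ({sx (x * z)} : Set ↥(centralizer ({((x * z : PP) : G)} : Set G)))) =
      Nat.card ↥(centralizer ({sx x} : Set ↥(centralizer ({(x : G)} : Set G)))) := by
    rw [← card_cent_of_conj hc]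
    have h5 : (centralizer ({e.symm (sx (x * z))} : Set ↥(centralizer ({(x : G)} : Set G)))).map e.toMonoidHom =
        centralizer ({sx (x * z)} : Set ↥(centralizer ({((x * z : PP) : G)} : Set G))) := by
      ext w
      constructor
      · rintro ⟨v, hv, rfl⟩
        rw [SetLike.mem_coe, mem_centralizer_singleton_iff] at hv
        rw [mem_centralizer_singleton_iff]
        change e v * sx (x * z) = sx (x * z) * e v
        have h6 := congrArg e hv
        rwa [map_mul, map_mul, MulEquiv.apply_symm_apply] at h6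
      · intro hw
        rw [mem_centralizer_singleton_iff] at hw
        refine ⟨e.symm w, ?_, MulEquiv.apply_symm_apply e w⟩
        rw [SetLike.mem_coe, mem_centralizer_singleton_iff, ← map_mul, ← map_mul, hw]
    rw [← h5]
    exact card_map_of_injective e.injective
  rw [h4] at h100
  have h9 := h3.trans h100
  norm_num at h9

/-- **type I : `Good`** -/
theorem good_one (FT : ∀ (K : Type) [Group K] [Finite K], Odd (Nat.card K) → Group.IsSolvable K) {x : PP}
    (hx : orderOf x = 5) (h : ρ x = φA c5) : NoComp 5 ↥(centralizer ({(x : G)} : Set G)) := by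
  refine noComp_of_unique FT Nat.prime_five (by norm_num) (order_sx x) (unique_one h) (dvd_one hx h) ?_
  intro h1
  have h2 : Nat.card ↥(centralizer ({sx x} : Set ↥(centralizer ({(x : G)} : Set G)))) ∣ Nat.card ↥PP := by
    exact card_dvd_of_injective (toPP x) (toPP_inj x)
  have h3 := h1.trans h2
  rw [card_PP] at h3
  norm_num at h3

end Cfsg.Agent.BpSpor.HNFiveA
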