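import Cfsg.Agent.BpSpor.Row.HS
import Cfsg.Agent.BpSpor.RowTool
import Cfsg.Agent.CpAutHSFive.Row

/-!
# S1332, the row `HS`, `p = 5` (helper70)
-/

set_option autoImplicit false

namespace Cfsg.Agent.BpSpor.HS

open Subgroup Cfsg Cfsg.Agent.BpTab

universe u

/-- **S1332, the row `HS`, `p = 5`** -/
theorem bps_five {K : Type u} [Group K] (h : Spor.IsoHS K) : BpS 5 K := by
  have D := Row.dat_hs h
  have hp : Fact (Nat.Prime 5) := ⟨by norm_num⟩
  have hf : Finite K := Nat.finite_of_card_ne_zero (by rw [D.card]; norm_num)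
  refine RowTool.bps_of_inner (center_eq_bot_of_card D.simple (by rw [D.card]; norm_num))
    (D.inn 5 hp.out (by norm_num)) fun g hg => RowTool.good_sub _ (fun _ h64 => ?_) ?_ ?_ ?_ ?_
  · exact CpAutHSFive.not_eight h hg ((by norm_num : 8 ∣ 64).trans h64)
  · intro _; rw [D.card]; norm_num
  · intro h; exact absurd rfl h
  · intro _; rw [D.card]; norm_num
  · intro r hr h11 _
    exact RowTool.no_sq 9 2 3 1 [11] (D.card.trans (by norm_num)) (by simp; norm_num) (by simp) r hr h11

end Cfsg.Agent.BpSpor.HS
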